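import Cfsg.Agent.SymSylow.AltTorus

/-!
Shears on the blocks of size `p ^ 2` of the monomial model: together with the torus they generate
the automorphisms of a Sylow subgroup of an alternating group, for odd `p`.
-/

set_option autoImplicit false

namespace CfsgLib.SymSylow.Mono

open Equiv

variable {p : ℕ} {N Q R : Type*}

theorem mo_mem_normalizer_wr {I : Type*} [Fact p.Prime] [Finite I] [Finite R]
    {P : Subgroup (Perm I)} {σ : Perm I} (hσ : σ ∈ Subgroup.normalizer (P : Set (Perm I)))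
    {a : I → (ZMod p)ˣ} (ha : ∀ π ∈ P, ∀ i, a (π i) = a i) :
    mo (R := R) σ a 0 ∈
      Subgroup.normalizer ((wr P : Subgroup (Perm (I × ZMod p ⊕ R))) : Set (Perm (I × ZMod p ⊕ R))) := by
  have : NeZero p := ⟨(Fact.out : p.Prime).ne_zero⟩
  refine Subgroup.mem_normalizer_fintype fun g hg => ?_
  obtain ⟨π, hπ, b, rfl⟩ := hg
  refine ⟨σ * π * σ⁻¹, (Subgroup.mem_normalizer_iff.1 hσ π).1 hπ,
    fun i => (a (σ⁻¹ i) : ZMod p) * b (σ⁻¹ i), ?_⟩
  rw [mul_inv_eq_iff_eq_mul, mo_mul, mo_mul]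
  refine ext_inl (fun i y => ?_) fun r => rfl
  simp only [mo_inl, Perm.mul_apply, Perm.inv_def, Equiv.symm_apply_apply, Pi.one_apply,
    Pi.zero_apply, one_mul, mul_one, mul_zero, add_zero, zero_add, ha π hπ]

/-- The shear `(t, x, y) ↦ (t, x + e t * y, y)`. -/
def shearFun (e : N → ZMod p) :
    ((N × ZMod p ⊕ Q) × ZMod p ⊕ R) → ((N × ZMod p ⊕ Q) × ZMod p ⊕ R)
  | Sum.inl (Sum.inl (t, x), y) => Sum.inl (Sum.inl (t, x + e t * y), y)
  | z => z

theorem shearFun_comp (e e' : N → ZMod p) (z : (N × ZMod p ⊕ Q) × ZMod p ⊕ R) :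
    shearFun e (shearFun e' z) = shearFun (e + e') z := by
  rcases z with ⟨⟨t, x⟩ | q, y⟩ | r <;> simp [shearFun]
  ring

theorem shearFun_zero (z : (N × ZMod p ⊕ Q) × ZMod p ⊕ R) :
    shearFun (0 : N → ZMod p) z = z := by
  rcases z with ⟨⟨t, x⟩ | q, y⟩ | r <;> simp [shearFun]

/-- The shear as a permutation. -/
def ush (e : N → ZMod p) : Perm ((N × ZMod p ⊕ Q) × ZMod p ⊕ R) where
  toFun := shearFun e
  invFun := shearFun (-e)
  left_inv z := by rw [shearFun_comp, neg_add_cancel, shearFun_zero]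
  right_inv z := by rw [shearFun_comp, add_neg_cancel, shearFun_zero]

theorem ush_mul (e e' : N → ZMod p) : ush (Q := Q) (R := R) e * ush e' = ush (e + e') :=
  Equiv.ext fun z => shearFun_comp e e' z

theorem ush_pow_prime (e : N → ZMod p) : ush (Q := Q) (R := R) e ^ p = 1 := by
  have key : ∀ k : ℕ, ush (Q := Q) (R := R) e ^ k = ush (k • e) := by
    intro k
    induction k with
    | zero =>
      rw [pow_zero, zero_smul]
      exact Equiv.ext fun z => (shearFun_zero z).symm
    | succ k ih => rw [pow_succ, ih, ush_mul, succ_nsmul]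
  rw [key, show p • e = 0 from funext fun i => by simp]
  exact Equiv.ext fun z => shearFun_zero z

/-- The vector `(t, x) ↦ e t * x`. -/
def lvec (e : N → ZMod p) : N × ZMod p ⊕ Q → ZMod p
  | Sum.inl (t, x) => e t * x
  | Sum.inr _ => 0

/-- The other shear `(t, x, y) ↦ (t, x, y + e t * x)`. -/
def lsh (e : N → ZMod p) : Perm ((N × ZMod p ⊕ Q) × ZMod p ⊕ R) := mo 1 1 (lvec e)

/-- The diagonal `(t, x, y) ↦ (t, A t * x, (A t)⁻¹ * y)`. -/
def ga (A : N → (ZMod p)ˣ) : Perm ((N × ZMod p ⊕ Q) × ZMod p ⊕ R) :=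
  mo (mo 1 A 0) (Sum.elim (fun tx => (A tx.1)⁻¹) 1) 0

/-- The two level wreath product. -/
abbrev topWr (p : ℕ) (Q R : Type*) (P : Subgroup (Perm N)) :
    Subgroup (Perm ((N × ZMod p ⊕ Q) × ZMod p ⊕ R)) :=
  wr (wr P)

variable [hp : Fact p.Prime] [DecidableEq N] [DecidableEq Q] [DecidableEq R] [Fintype N] [Fintype Q]
  [Fintype R]

/-- The translations of the regular `p ^ 2`-blocks over `T₀` and of the `p`-blocks elsewhere. -/
def vGroup (p : ℕ) (Q R : Type*) (T₀ : Finset N) :
    Subgroup (Perm ((N × ZMod p ⊕ Q) × ZMod p ⊕ R)) where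
  carrier := {g | ∃ c b, (∀ t ∉ T₀, c t = 0) ∧
    (∀ t ∈ T₀, ∀ x, b (Sum.inl (t, x)) = b (Sum.inl (t, 0))) ∧ g = mo (mo 1 1 c) 1 b}
  mul_mem' := by
    rintro _ _ ⟨c, b, hc, hb, rfl⟩ ⟨c', b', hc', hb', rfl⟩
    refine ⟨c + c', fun i => b' i + b (mo 1 1 c' i), fun t ht => by simp [hc t ht, hc' t ht],
      fun t ht x => ?_, ?_⟩
    · show b' _ + b (mo 1 1 c' _) = b' _ + b (mo 1 1 c' _)
      rw [mo_inl, mo_inl, hb' t ht, Perm.one_apply, hb t ht, hb t ht (_ + c' t)]
    · rw [mo_one_one_mul, mo_trans_mul]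
  one_mem' := ⟨0, 0, fun t _ => rfl, fun t _ x => rfl, by rw [mo_one, mo_one]⟩
  inv_mem' := by
    rintro _ ⟨c, b, hc, hb, rfl⟩
    refine ⟨-c, fun i => -b (mo 1 1 (-c) i), fun t ht => by simp [hc t ht],
      fun t ht x => ?_, ?_⟩
    · show -b (mo 1 1 (-c) _) = -b (mo 1 1 (-c) _)
      rw [mo_inl, mo_inl, Perm.one_apply, hb t ht, hb t ht (_ + (-c) t)]
    · refine inv_eq_of_mul_eq_one_right ?_
      rw [mo_one_one_mul, mo_trans_mul, add_neg_cancel]
      simp only [mo_one, neg_add_cancel]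
      exact mo_one

omit hp [DecidableEq N] [DecidableEq Q] [DecidableEq R] [Fintype N] [Fintype Q] [Fintype R] in
theorem vGroup_le {T₀ : Finset N} (P : Subgroup (Perm N)) :
    vGroup p Q R T₀ ≤ wr (wr P) := by
  rintro _ ⟨c, b, -, -, rfl⟩
  exact mo_mem_wr (trans_mem_wr P c) b

omit [DecidableEq R] [Fintype N] [Fintype Q] in
theorem vGroup_selfCentralizing [NeZero p] (hR : Fintype.card R ≤ 1) (T₀ : Finset N)
    {z : Perm ((N × ZMod p ⊕ Q) × ZMod p ⊕ R)}
    (hz : ∀ x ∈ vGroup p Q R T₀, z * x = x * z) : z ∈ vGroup p Q R T₀ := by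
  have hzx : ∀ x ∈ vGroup p Q R T₀, ∀ v, z (x v) = x (z v) := fun x hx v =>
    Equiv.ext_iff.1 (hz x hx) v
  -- a translation moving a single cycle
  have hsingle : ∀ i : N × ZMod p ⊕ Q, (∀ t x, i = Sum.inl (t, x) → t ∉ T₀) →
      ∃ e : ZMod p, ∀ y, z (Sum.inl (i, y)) = Sum.inl (i, y + e) := by
    intro i hi
    have hmem : ∀ u : ZMod p, mo (R := R) (mo 1 1 0) 1 (Pi.single i u) ∈ vGroup p Q R T₀ := fun u =>
      ⟨0, Pi.single i u, fun t _ => rfl, fun t ht x => by
        rw [Pi.single_eq_of_ne (fun e => hi t x e.symm ht),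
          Pi.single_eq_of_ne (fun e => hi t 0 e.symm ht)], rfl⟩
    simp only [mo_one] at hmem
    obtain ⟨e, he⟩ : ∃ e, z (Sum.inl (i, 0)) = Sum.inl (i, e) := by
      rcases h : z (Sum.inl (i, 0)) with ⟨l, e⟩ | r
      · rcases eq_or_ne l i with rfl | hl
        · exact ⟨e, rfl⟩
        exfalso
        have := hzx _ (hmem 1) (Sum.inl (i, 0))
        rw [h] at this
        simp [Pi.single_eq_of_ne hl] at this
        rw [← h] at this
        simpa using z.injective this
      · exfalso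
        have := hzx _ (hmem 1) (Sum.inl (i, 0))
        rw [h] at this
        simp at this
        rw [← h] at this
        simpa using z.injective this
    refine ⟨e, fun y => ?_⟩
    have := hzx _ (hmem y) (Sum.inl (i, 0))
    rw [he] at this
    simpa [add_comm] using this
  -- the translations of a block of size `p ^ 2`
  have hblock : ∀ t ∈ T₀, ∃ u v : ZMod p, ∀ x y,
      z (Sum.inl (Sum.inl (t, x), y)) = Sum.inl (Sum.inl (t, x + u), y + v) := by
    intro t ht
    let col : ZMod p → (N × ZMod p ⊕ Q → ZMod p) := fun v =>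
      Sum.elim (fun tx => if tx.1 = t then v else 0) 0
    have hmem : ∀ u v, mo (R := R) (mo 1 1 (Pi.single t u)) 1 (col v) ∈ vGroup p Q R T₀ :=
      fun u v => ⟨Pi.single t u, col v, fun t' ht' => Pi.single_eq_of_ne (fun e : t' = t => ht' (e ▸ ht)) _,
        fun t' _ x => rfl, rfl⟩
    obtain ⟨u, v, huv⟩ : ∃ u v, z (Sum.inl (Sum.inl (t, 0), 0)) = Sum.inl (Sum.inl (t, u), v) := by
      have := hzx _ (hmem 0 1) (Sum.inl (Sum.inl (t, 0), 0))
      rcases h : z (Sum.inl (Sum.inl (t, 0), 0)) with ⟨⟨t', u⟩ | q, v⟩ | r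
      · rcases eq_or_ne t' t with rfl | hne
        · exact ⟨u, v, rfl⟩
        exfalso
        rw [h] at this
        simp [col, hne] at this
        rw [← h] at this
        simpa using z.injective this
      all_goals
        exfalso
        rw [h] at this
        simp [col] at this
        rw [← h] at this
        simpa using z.injective this
    refine ⟨u, v, fun x y => ?_⟩
    have := hzx _ (hmem x y) (Sum.inl (Sum.inl (t, 0), 0))
    rw [huv] at this
    simpa [col, add_comm] using this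
  classical
  choose! u v huv using hblock
  choose! e he using hsingle
  refine ⟨fun t => if t ∈ T₀ then u t else 0, fun i => Sum.elim
    (fun tx => if tx.1 ∈ T₀ then v tx.1 else e (Sum.inl tx)) (fun q => e (Sum.inr q)) i,
    fun t ht => if_neg ht, fun t ht x => by simp [ht], ext_inl (fun i y => ?_) fun r => ?_⟩
  · rcases i with ⟨t, x⟩ | q
    · by_cases ht : t ∈ T₀
      · simp [huv t ht, ht]
      · rw [he _ (fun t' x' h => by cases h; exact ht)]
        simp [ht]
    · rw [he _ (fun t' x' h => by cases h)]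
      simp
  · have := Fintype.card_le_one_iff_subsingleton.1 hR
    rcases hz' : z (Sum.inr r) with ⟨⟨t, x⟩ | q, y⟩ | r'
    · exfalso
      by_cases ht : t ∈ T₀
      · have h1 := huv t ht (x - u t) (y - v t)
        rw [sub_add_cancel, sub_add_cancel, ← hz'] at h1
        exact Sum.inl_ne_inr (z.injective h1)
      · have h1 := he (Sum.inl (t, x)) (fun t' x' h => by cases h; exact ht) (y - e (Sum.inl (t, x)))
        rw [sub_add_cancel, ← hz'] at h1
        exact Sum.inl_ne_inr (z.injective h1)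
    · exfalso
      have h1 := he (Sum.inr q) (fun t' x' h => by cases h) (y - e (Sum.inr q))
      rw [sub_add_cancel, ← hz'] at h1
      exact Sum.inl_ne_inr (z.injective h1)
    · rw [mo_inr, Subsingleton.elim r' r]

omit [DecidableEq R] in
theorem transGroup_selfCentralizing [NeZero p] {I : Type*} [DecidableEq I] [Fintype I]
    (hR : Fintype.card R ≤ 1) {z : Perm (I × ZMod p ⊕ R)}
    (hz : ∀ x ∈ transGroup p I R, z * x = x * z) : z ∈ transGroup p I R := by
  have hzx : ∀ c v, z (mo (R := R) 1 1 c v) = mo 1 1 c (z v) := fun c v =>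
    Equiv.ext_iff.1 (hz _ (trans_mem_wr _ c)) v
  have key : ∀ i : I, ∃ e : ZMod p, ∀ y, z (Sum.inl (i, y)) = Sum.inl (i, y + e) := by
    intro i
    obtain ⟨e, he⟩ : ∃ e, z (Sum.inl (i, 0)) = Sum.inl (i, e) := by
      rcases h : z (Sum.inl (i, 0)) with ⟨l, e⟩ | r
      · rcases eq_or_ne l i with rfl | hl
        · exact ⟨e, rfl⟩
        exfalso
        have := hzx (Pi.single i 1) (Sum.inl (i, 0))
        rw [h] at this
        simp [Pi.single_eq_of_ne hl] at this
        rw [← h] at this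
        simpa using z.injective this
      · exfalso
        have := hzx (Pi.single i 1) (Sum.inl (i, 0))
        rw [h] at this
        simp at this
        rw [← h] at this
        simpa using z.injective this
    refine ⟨e, fun y => ?_⟩
    have := hzx (Pi.single i y) (Sum.inl (i, 0))
    rw [he] at this
    simpa [add_comm] using this
  choose e he using key
  refine mem_wr_bot.2 ⟨e, ext_inl (fun i y => by simpa using he i y) fun r => ?_⟩
  have := Fintype.card_le_one_iff_subsingleton.1 hR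
  rcases hr : z (Sum.inr r) with ⟨i, y⟩ | r'
  · exfalso
    have h1 := he i (y - e i)
    rw [sub_add_cancel, ← hr] at h1
    exact Sum.inl_ne_inr (z.injective h1)
  · rw [mo_inr, Subsingleton.elim r' r]

theorem ush_mem_pNorm [NeZero p] (hodd : Odd p) {T₀ : Finset N} {e : N → ZMod p}
    (he : ∀ t ∉ T₀, e t = 0) : ush e ∈ pNorm p (vGroup p Q R T₀) := by
  refine Subgroup.subset_closure ⟨sign_eq_one_of_pow_odd hodd (ush_pow_prime e), ?_, 1, by
    rw [pow_one, ush_pow_prime]⟩
  refine Subgroup.mem_normalizer_fintype fun g hg => ?_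
  obtain ⟨c, b, hc, hb, rfl⟩ := hg
  refine ⟨fun t => c t + e t * b (Sum.inl (t, 0)), b, fun t ht => by simp [hc t ht, he t ht], hb, ?_⟩
  rw [mul_inv_eq_iff_eq_mul]
  refine Equiv.ext ?_
  rintro (⟨⟨t, x⟩ | q, y⟩ | r) <;> simp [ush, shearFun, Perm.mul_apply]
  by_cases ht : t ∈ T₀
  · rw [hb t ht x, hb t ht (x + e t * y)]
    exact ⟨by ring, rfl⟩
  · simp [he t ht]

theorem lsh_mem_pNorm [NeZero p] (hodd : Odd p) {T₀ : Finset N} {e : N → ZMod p}
    (he : ∀ t ∉ T₀, e t = 0) : lsh e ∈ pNorm p (vGroup p Q R T₀) := by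
  refine Subgroup.subset_closure ⟨sign_eq_one_of_pow_odd hodd (mo_trans_pow_prime _), ?_, 1, by
    rw [pow_one]; exact mo_trans_pow_prime _⟩
  refine Subgroup.mem_normalizer_fintype fun g hg => ?_
  obtain ⟨c, b, hc, hb, rfl⟩ := hg
  refine ⟨c, fun i => lvec e (mo 1 1 c i) + b i - lvec e i, hc, fun t ht x => ?_, ?_⟩
  · simp only [mo_inl, Perm.one_apply, Pi.one_apply, Units.val_one, one_mul, lvec, hb t ht x]
    ring
  · rw [mul_inv_eq_iff_eq_mul, lsh, mo_one_one_mul, mo_one_one_mul]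
    refine congrArg₂ (fun u v => mo u 1 v) (by rw [one_mul, mul_one]) (funext fun i => ?_)
    simp
    ring

/-- The diagonal elements lie in `pNorm`. -/
theorem ga_mem_pNorm [NeZero p] (hodd : Odd p) (T₀ : Finset N) (a : (ZMod p)ˣ) :
    ga (fun t => if t ∈ T₀ then a else 1) ∈ pNorm p (vGroup p Q R T₀) := by
  let ind : ZMod p → N → ZMod p := fun c t => if t ∈ T₀ then c else 0
  have hind : ∀ c, ∀ t ∉ T₀, ind c t = 0 := fun c t ht => if_neg ht
  have e : ga (Q := Q) (R := R) (fun t => if t ∈ T₀ then a else 1) =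
      ush (ind a) * lsh (ind (-(a⁻¹ : (ZMod p)ˣ))) * ush (ind a) *
        (ush (ind (-1)) * lsh (ind 1) * ush (ind (-1))) := by
    refine Equiv.ext ?_
    rintro (⟨⟨t, x⟩ | q, y⟩ | r)
    · by_cases ht : t ∈ T₀
      · simp [ga, ush, lsh, shearFun, lvec, ind, Perm.mul_apply, ht, -Units.val_inv_eq_inv_val]
        constructor
        · have := Units.mul_inv a
          linear_combination ((a : ZMod p) * x - y) * this
        · have := Units.mul_inv a
          linear_combination (x) * this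
      · simp [ga, ush, lsh, shearFun, lvec, ind, Perm.mul_apply, ht, -Units.val_inv_eq_inv_val]
    · simp [ga, ush, lsh, shearFun, lvec, ind, Perm.mul_apply, -Units.val_inv_eq_inv_val]
    · simp [ga, ush, lsh, shearFun, Perm.mul_apply, -Units.val_inv_eq_inv_val]
  rw [e]
  exact mul_mem (mul_mem (mul_mem (ush_mem_pNorm hodd (hind _)) (lsh_mem_pNorm hodd (hind _)))
    (ush_mem_pNorm hodd (hind _))) (mul_mem (mul_mem (ush_mem_pNorm hodd (hind _))
      (lsh_mem_pNorm hodd (hind _))) (ush_mem_pNorm hodd (hind _)))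

/-- Every even element normalizing the Sylow subgroup is a product of such elements lying in
`pNorm` of self-centralizing subgroups. -/
theorem torus_generated [NeZero p] (hodd : Odd p) [Nonempty N] (hR : Fintype.card R ≤ 1)
    (P : Sylow p (Perm N)) {h : Perm ((N × ZMod p ⊕ Q) × ZMod p ⊕ R)}
    (hA : h ∈ alternatingGroup ((N × ZMod p ⊕ Q) × ZMod p ⊕ R))
    (hh : h ∈ Subgroup.normalizer (topWr p Q R (P : Subgroup (Perm N)) : Set _)) :
    h ∈ Subgroup.closure {g | g ∈ Subgroup.normalizer (topWr p Q R (P : Subgroup (Perm N)) : Set _) ∧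
      ∃ H : Subgroup (Perm ((N × ZMod p ⊕ Q) × ZMod p ⊕ R)), H ≤ topWr p Q R (P : Subgroup (Perm N)) ∧
        (∀ z, (∀ x ∈ H, z * x = x * z) → z ∈ H) ∧ g ∈ pNorm p H} := by
  classical
  obtain ⟨t₀⟩ := ‹Nonempty N›
  set O := MulAction.orbit (P : Subgroup (Perm N)) t₀ with hO
  set T₀ : Finset N := O.toFinset with hT₀
  obtain ⟨j, hj⟩ := (IsPGroup.card_orbit P.isPGroup' t₀)
  have hT₀card : T₀.card = p ^ j := by
    rw [hT₀, Set.toFinset_card, ← Nat.card_eq_fintype_card, hj]
  have hinv : ∀ π ∈ (P : Subgroup (Perm N)), ∀ t, π t ∈ T₀ ↔ t ∈ T₀ := by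
    intro π hπ t
    simp only [hT₀, Set.mem_toFinset, hO]
    exact MulAction.orbit_eq_iff.symm.trans (by
      rw [show π t = (⟨π, hπ⟩ : (P : Subgroup (Perm N))) • t from rfl,
        MulAction.orbit_smul, MulAction.orbit_eq_iff])
  obtain ⟨σ, α, b, rfl⟩ := exists_eq_mo hR hh
  -- the diagonal correcting the product
  set a : (ZMod p)ˣ := ∏ i, α i with ha
  set A : N → (ZMod p)ˣ := fun t => if t ∈ T₀ then a else 1 with hAdef
  have hgR2 : ga (Q := Q) (R := R) A ∈ pNorm p (vGroup p Q R T₀) := ga_mem_pNorm hodd T₀ a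
  have hgN : ga (Q := Q) (R := R) A ∈ Subgroup.normalizer (topWr p Q R (P : Subgroup (Perm N)) : Set _) := by
    have hAπ : ∀ π ∈ (P : Subgroup (Perm N)), ∀ t, A (π t) = A t := fun π hπ t => by
      simp only [hAdef, hinv π hπ t]
    refine mo_mem_normalizer_wr (mo_mem_normalizer_wr (one_mem _) hAπ) ?_
    rintro _ ⟨π, hπ, c, rfl⟩ (⟨t, x⟩ | q)
    · simp [hAπ π hπ t]
    · simp
  -- the product is now one
  set g' := mo (R := R) σ α b * ga A with hg'
  have hg'N := mul_mem hh hgN
  have hg'A : g' ∈ alternatingGroup ((N × ZMod p ⊕ Q) × ZMod p ⊕ R) :=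
    mul_mem hA (((Subgroup.closure_le _).2 fun g hg => hg.1 : pNorm p _ ≤ _) hgR2)
  have hg'E : g' ∈ pNorm p (transGroup p (N × ZMod p ⊕ Q) R) := by
    have hcardI : p ≤ Fintype.card (N × ZMod p ⊕ Q) := by
      rw [Fintype.card_sum, Fintype.card_prod, ZMod.card]
      have : 0 < Fintype.card N := Fintype.card_pos
      nlinarith
    have hI : 3 ≤ Fintype.card (N × ZMod p ⊕ Q) := by
      have h2 := hp.out.two_le
      obtain ⟨c, hc⟩ := hodd
      omega
    rw [hg', ga, mo_mul] at hg'A ⊢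
    refine mo_mem_pNorm hodd hI hcardI hg'A ?_
    rw [Finset.prod_mul_distrib, Equiv.prod_comp (mo (R := Q) 1 A 0) α, ← ha, Fintype.prod_sum_type]
    simp only [Sum.elim_inl, Sum.elim_inr, Pi.one_apply, Finset.prod_const_one, mul_one]
    rw [Fintype.prod_prod_type]
    simp only [Finset.prod_const, Finset.card_univ, ZMod.card, hAdef, inv_pow]
    rw [Finset.prod_inv_distrib, Finset.prod_pow]
    have hpow : ∀ u : (ZMod p)ˣ, u ^ p = u := fun u => Units.ext (by simp [ZMod.pow_card])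
    rw [hpow, Finset.prod_ite_mem, Finset.univ_inter, Finset.prod_const, hT₀card]
    have hpowj : a ^ p ^ j = a := Units.ext (by rw [Units.val_pow_eq_pow_val, ZMod.pow_card_pow])
    rw [hpowj, mul_inv_cancel]
  have e : mo (R := R) σ α b = g' * (ga A)⁻¹ := by rw [hg', mul_inv_cancel_right]
  rw [e]
  refine mul_mem (Subgroup.subset_closure ⟨hg'N, transGroup p (N × ZMod p ⊕ Q) R, ?_, fun z hz => transGroup_selfCentralizing hR hz, hg'E⟩)
    (inv_mem (Subgroup.subset_closure ⟨hgN, vGroup p Q R T₀, vGroup_le _, fun z hz => vGroup_selfCentralizing hR T₀ hz, hgR2⟩))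
  intro x hx
  obtain ⟨c, rfl⟩ := mem_wr_bot.1 hx
  exact trans_mem_wr _ c

end CfsgLib.SymSylow.Mono
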