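import Cfsg.Agent.Fus.NormalOverSylow
import Cfsg.Agent.Fus.Group

/-!
Simplicity of the fusion system of a group from self-centralizing `p`-subgroups.
-/

set_option autoImplicit false

namespace CfsgLib.SymSylow.Fusion

open Cfsg Cfsg.FusionSystem CfsgLib.Fus CfsgLib.Fus.NormalOverSylow

variable {G G' : Type*} [Group G] [Group G'] {p : ℕ}

/-- The data for the simplicity criterion: no proper nontrivial strongly closed subgroup, and the
normalizer of `S` is generated by `p`-elements of normalizers of self-centralizing subgroups. -/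
def Good (p : ℕ) (S : Subgroup G) : Prop :=
  (∀ T : Subgroup G, T ≤ S → (∀ x ∈ T, ∀ g : G, g * x * g⁻¹ ∈ S → g * x * g⁻¹ ∈ T) →
    T = ⊥ ∨ T = S) ∧
  ∀ h ∈ Subgroup.normalizer (S : Set G), h ∈ Subgroup.closure
    {g | g ∈ Subgroup.normalizer (S : Set G) ∧ ∃ R : Subgroup G, R ≤ S ∧
      (∀ z, (∀ x ∈ R, z * x = x * z) → z ∈ R) ∧
      g ∈ Subgroup.closure {u | u ∈ Subgroup.normalizer (R : Set G) ∧ ∃ k : ℕ, u ^ p ^ k = 1}}

theorem Good.map {S : Subgroup G} (h : Good p S) (ψ : G ≃* G') :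
    Good p (S.map ψ.toMonoidHom) := by
  have hN : ∀ (H : Subgroup G) (g : G), g ∈ Subgroup.normalizer (H : Set G) ↔
      ψ g ∈ Subgroup.normalizer ((H.map ψ.toMonoidHom : Subgroup G') : Set G') := by
    intro H g
    rw [← Subgroup.map_equiv_normalizer_eq]
    exact ⟨fun hg => ⟨g, hg, rfl⟩, fun ⟨u, hu, e⟩ => ψ.injective e ▸ hu⟩
  refine ⟨fun T hT hcl => ?_, fun g hg => ?_⟩
  · obtain h1 | h1 := h.1 (T.comap ψ.toMonoidHom) (fun x hx => by
      obtain ⟨y, hy, e⟩ := hT hx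
      exact ψ.injective e ▸ hy) (fun x hx c hc => by
      show ψ (c * x * c⁻¹) ∈ T
      rw [map_mul, map_mul, map_inv]
      exact hcl _ hx _ ⟨_, hc, by simp⟩)
    · left
      rw [eq_bot_iff]
      intro x hx
      have hx' : ψ.symm x ∈ T.comap ψ.toMonoidHom := by simpa using hx
      rw [h1, Subgroup.mem_bot] at hx'
      simpa using hx'
    · right
      rw [← h1, Subgroup.map_comap_eq_self_of_surjective ψ.surjective]
  · obtain ⟨g, rfl⟩ := ψ.surjective g
    have h2 := Subgroup.mem_map_of_mem ψ.toMonoidHom (h.2 g ((hN S g).2 hg))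
    rw [MonoidHom.map_closure] at h2
    refine Subgroup.closure_mono ?_ h2
    rintro _ ⟨u, ⟨hu, R, hR, hRc, huR⟩, rfl⟩
    refine ⟨(hN S u).1 hu, R.map ψ.toMonoidHom, Subgroup.map_mono hR, fun z hz => ?_, ?_⟩
    · obtain ⟨z, rfl⟩ := ψ.surjective z
      exact ⟨z, hRc z fun x hx => ψ.injective (by
        rw [map_mul, map_mul]; exact hz _ ⟨x, hx, rfl⟩), rfl⟩
    · have h3 := Subgroup.mem_map_of_mem ψ.toMonoidHom huR
      rw [MonoidHom.map_closure] at h3
      refine Subgroup.closure_mono ?_ h3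
      rintro _ ⟨v, ⟨hv, k, hk⟩, rfl⟩
      exact ⟨(hN R v).1 hv, k, by rw [← map_pow, hk, map_one]⟩

variable [Finite G] [Fact p.Prime]

/-- `p`-elements of the normalizer of any subgroup of `S` act through the invariant subsystem. -/
theorem conjAut_mem_of_isPGroup (S : Sylow p G) {E : Cfsg.FusionSystem (S : Subgroup G)}
    (hE : E.IsInvariantIn (Cfsg.groupFusionSystem (S : Subgroup G))) {R : Subgroup G}
    (hR : R ≤ (S : Subgroup G)) {g : G} (hg : g ∈ Subgroup.normalizer (R : Set G))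
    (hgp : IsPGroup p (Subgroup.zpowers g)) : conjAut hg ∈ E.autGroup R := by
  obtain ⟨h, hh⟩ := conj_le_sylow S (IsPGroup.to_sup_of_normal_left' (S.isPGroup'.to_le hR) hgp
    (Subgroup.zpowers_le.2 hg))
  set R' := R.map (MulAut.conj h).toMonoidHom with hR'
  have hR'S : R' ≤ (S : Subgroup G) := by
    rintro _ ⟨x, hx, rfl⟩
    exact hh x (Subgroup.mem_sup_left hx)
  have hsN : h * g * h⁻¹ ∈ Subgroup.normalizer (R' : Set G) := by
    rw [hR', ← Subgroup.map_equiv_normalizer_eq R (MulAut.conj h)]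
    exact ⟨g, hg, rfl⟩
  have hsS : h * g * h⁻¹ ∈ (S : Subgroup G) :=
    hh g (Subgroup.mem_sup_right (Subgroup.mem_zpowers g))
  have hsE : conjAut hsN ∈ E.autGroup R' :=
    autInducedBy_le_autGroup E hR'S (conjAut_mem_autInducedBy hsN hsS)
  have hback : ∀ x ∈ R', h⁻¹ * x * h⁻¹⁻¹ ∈ R := by
    rintro _ ⟨x, hx, rfl⟩
    simpa [mul_assoc] using hx
  have hφ : Cfsg.conjHom R' h⁻¹ ∈ (Cfsg.groupFusionSystem (S : Subgroup G)).Hom R' :=
    conjHom_mem_group hR'S fun x hx => hR (hback x hx)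
  have hr : (Cfsg.conjHom R' h⁻¹).range = R := by
    rw [conjHom_range_eq_map, hR', Subgroup.map_map]
    convert Subgroup.map_id R using 2
    exact MonoidHom.ext fun x => by simp [mul_assoc]
  convert congr_mem_of_invariant hE hR'S hφ hr hsE using 1
  refine MulEquiv.ext fun y => Subtype.ext ?_
  obtain ⟨x, rfl⟩ := (isoOf hφ hr).surjective y
  show g * (h⁻¹ * (x : G) * h⁻¹⁻¹) * g⁻¹ =
    h⁻¹ * ((conjAut hsN ((isoOf hφ hr).symm (isoOf hφ hr x)) : R') : G) * h⁻¹⁻¹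
  rw [MulEquiv.symm_apply_apply, conjAut_apply]
  group

omit [Finite G] [Fact p.Prime] in
/-- A self-centralizing `p`-subgroup is centric. -/
theorem isCentric_of_selfCentralizing (S : Sylow p G) {R : Subgroup G} (hR : R ≤ (S : Subgroup G))
    (hc : ∀ z, (∀ x ∈ R, z * x = x * z) → z ∈ R) :
    (Cfsg.groupFusionSystem (S : Subgroup G)).IsCentric R := by
  refine ⟨hR, ?_⟩
  rintro Q ⟨φ, ⟨-, -, g, hg⟩, hr⟩ y ⟨-, hy⟩
  rw [← hr]
  have hy' : g⁻¹ * y * g ∈ R := hc _ fun x hx => by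
    have e := hy (φ ⟨x, hx⟩) (hr ▸ ⟨_, rfl⟩)
    rw [hg] at e
    calc g⁻¹ * y * g * x = g⁻¹ * (y * (g * x * g⁻¹)) * g := by group
      _ = g⁻¹ * (g * x * g⁻¹ * y) * g := by rw [e]
      _ = x * (g⁻¹ * y * g) := by group
  exact ⟨⟨_, hy'⟩, by rw [hg]; group⟩

/-- The criterion for simplicity of the fusion system of a group. -/
theorem isSimple_of_good (S : Sylow p G) (hS1 : (S : Subgroup G) ≠ ⊥)
    (hG : Good p (S : Subgroup G)) :
    (Cfsg.groupFusionSystem (S : Subgroup G)).IsSimple p := by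
  refine ⟨CfsgLib.Fus.isSaturated_group S, hS1, fun T E hE => ?_⟩
  have hscl := hE.1.2.2.2.1
  have hcl : ∀ x ∈ T, ∀ g : G, g * x * g⁻¹ ∈ (S : Subgroup G) → g * x * g⁻¹ ∈ T := by
    intro x hx g hg
    have hle : Subgroup.zpowers x ≤ (S : Subgroup G) := Subgroup.zpowers_le.2 (hscl.1 hx)
    refine hscl.2 (Subgroup.zpowers x) (Subgroup.zpowers_le.2 hx) (Cfsg.conjHom _ g)
      (conjHom_mem_group hle ?_) ⟨x, Subgroup.mem_zpowers x⟩
    rintro _ ⟨k, rfl⟩
    show g * x ^ k * g⁻¹ ∈ (S : Subgroup G)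
    rw [← conj_zpow]
    exact Subgroup.zpow_mem _ hg k
  rcases hG.1 T hscl.1 hcl with h | h
  · exact Or.inl h
  subst h
  refine Or.inr ⟨rfl, fun P => ?_⟩
  obtain ⟨⟨hEsat, -, hinv⟩, -⟩ := hE
  have key : ∀ g ∈ Subgroup.normalizer ((S : Subgroup G) : Set G),
      ∃ hg : g ∈ Subgroup.normalizer ((S : Subgroup G) : Set G),
        conjAut hg ∈ E.autGroup (S : Subgroup G) := by
    intro g hg
    refine Subgroup.closure_induction
      (p := fun g _ => ∃ hg : g ∈ Subgroup.normalizer ((S : Subgroup G) : Set G),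
        conjAut hg ∈ E.autGroup (S : Subgroup G)) ?_ ?_ ?_ ?_ (hG.2 g hg)
    · rintro x ⟨hxS, R, hR, hRc, hxR⟩
      refine ⟨hxS, ?_⟩
      obtain ⟨hxR', hxE⟩ : ∃ h : x ∈ Subgroup.normalizer (R : Set G), conjAut h ∈ E.autGroup R := by
        refine Subgroup.closure_induction
          (p := fun g _ => ∃ h : g ∈ Subgroup.normalizer (R : Set G), conjAut h ∈ E.autGroup R)
          ?_ ?_ ?_ ?_ hxR
        · rintro u ⟨hu, k, hk⟩
          refine ⟨hu, conjAut_mem_of_isPGroup S hinv hR hu (IsPGroup.iff_card.2 ?_)⟩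
          obtain ⟨j, -, hj⟩ := (Nat.dvd_prime_pow (Fact.out : p.Prime)).1
            (orderOf_dvd_of_pow_eq_one hk)
          exact ⟨j, by rw [Nat.card_zpowers, hj]⟩
        · refine ⟨Subgroup.one_mem _, ?_⟩
          rw [show conjAut (Subgroup.one_mem (Subgroup.normalizer (R : Set G))) = 1 from
            map_one R.normalizerMonoidHom]
          exact one_mem _
        · rintro u v - - ⟨hu, hu'⟩ ⟨hv, hv'⟩
          exact ⟨Subgroup.mul_mem _ hu hv, conjAut_mul hu hv ▸ (E.autGroup R).mul_mem hu' hv'⟩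
        · rintro u - ⟨hu, hu'⟩
          exact ⟨Subgroup.inv_mem _ hu, conjAut_inv hu ▸ (E.autGroup R).inv_mem hu'⟩
      exact conjAut_mem_top S hEsat hinv.1 hxS R (isCentric_of_selfCentralizing S hR hRc) hxR' hxE
    · refine ⟨Subgroup.one_mem _, ?_⟩
      rw [show conjAut (Subgroup.one_mem (Subgroup.normalizer ((S : Subgroup G) : Set G))) = 1 from
        map_one (S : Subgroup G).normalizerMonoidHom]
      exact one_mem _
    · rintro u v - - ⟨hu, hu'⟩ ⟨hv, hv'⟩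
      exact ⟨Subgroup.mul_mem _ hu hv, conjAut_mul hu hv ▸ (E.autGroup _).mul_mem hu' hv'⟩
    · rintro u - ⟨hu, hu'⟩
      exact ⟨Subgroup.inv_mem _ hu, conjAut_inv hu ▸ (E.autGroup _).inv_mem hu'⟩
  refine Set.Subset.antisymm (hinv.1 P) fun φ hφ => ?_
  obtain ⟨β, hβ, φ₀, hφ₀, heq⟩ := hinv.2.2.2 P (hom_le _ hφ) φ hφ
  rw [autGroup_group le_rfl] at hβ
  obtain ⟨g, -, hgβ⟩ := mem_autInducedBy_iff.1 hβ
  obtain ⟨hg, hgE⟩ := key g (mem_normalizer_of_aut hgβ)
  have hβE : β ∈ E.autGroup (S : Subgroup G) := by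
    rw [show β = conjAut hg from MulEquiv.ext fun x => Subtype.ext (hgβ x)]
    exact hgE
  exact hom_of_comp E hφ₀ ((mem_autGroup_iff E le_rfl).1 hβE) (hom_mem E hφ₀) fun x => heq x _

end CfsgLib.SymSylow.Fusion
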