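import Cfsg.Agent.SymSylow.AltClosed
import Cfsg.Agent.SymSylow.AltShear
import Cfsg.Agent.SymSylow.FusionCriterion
import Cfsg.Agent.SymSylow.Normalizer

/-!
The fusion systems of alternating groups on their Sylow subgroups are simple.
-/

set_option autoImplicit false

namespace CfsgLib.SymSylow.Mono

open Equiv CfsgLib.SymSylow.Fusion

variable {p : ℕ} {N Q R : Type*} [hp : Fact p.Prime] [DecidableEq N] [DecidableEq Q] [DecidableEq R]
  [Fintype N] [Fintype Q] [Fintype R] [NeZero p]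

/-- The even part of the two level wreath product. -/
abbrev topAlt (p : ℕ) [NeZero p] (Q R : Type*) [DecidableEq Q] [DecidableEq R] [Fintype Q] [Fintype R]
    (P : Subgroup (Perm N)) : Subgroup (alternatingGroup ((N × ZMod p ⊕ Q) × ZMod p ⊕ R)) :=
  (topWr p Q R P).comap (alternatingGroup _).subtype

theorem topWr_le_alternating (hodd : Odd p) (hQ : Fintype.card Q < p) (hR : Fintype.card R < p)
    (P : Sylow p (Perm N)) :
    topWr p Q R (P : Subgroup (Perm N)) ≤ alternatingGroup ((N × ZMod p ⊕ Q) × ZMod p ⊕ R) := by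
  obtain ⟨P₁, hP₁⟩ := exists_sylow_eq_wr (R := Q) (by rwa [Nat.card_eq_fintype_card]) P
  obtain ⟨P₂, hP₂⟩ := exists_sylow_eq_wr (R := R) (by rwa [Nat.card_eq_fintype_card]) P₁
  intro g hg
  rw [topWr, ← hP₁, ← hP₂] at hg
  obtain ⟨k, hk⟩ := P₂.isPGroup' ⟨g, hg⟩
  exact sign_eq_one_of_pow_odd hodd.pow (congrArg Subtype.val hk)

theorem good_model (hI : 3 ≤ Fintype.card (N × ZMod p ⊕ Q)) [Nonempty N]
    (hQ : Fintype.card Q < p) (hR : Fintype.card R ≤ 1) (P : Sylow p (Perm N))
    (hgen : (P : Subgroup (Perm N)) ≤ Subgroup.closure {g | g ∈ (P : Subgroup (Perm N)) ∧ g ^ p = 1})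
    (hN2 : p = 2 → ∀ h ∈ Subgroup.normalizer (topAlt p Q R (P : Subgroup (Perm N)) : Set _),
      h ∈ topAlt p Q R (P : Subgroup (Perm N))) :
    Good p (topAlt p Q R (P : Subgroup (Perm N))) := by
  have hRp : Fintype.card R < p := lt_of_le_of_lt hR hp.out.one_lt
  obtain ⟨P₁, hP₁⟩ := exists_sylow_eq_wr (R := Q) (by rwa [Nat.card_eq_fintype_card]) P
  refine ⟨fun T hT hcl => ?_, ?_⟩
  · rcases eq_or_ne T ⊥ with h | h
    · exact Or.inl h
    refine Or.inr (le_antisymm hT ?_)
    have hT' : T.map (alternatingGroup _).subtype ≤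
        topWr p Q R (P : Subgroup (Perm N)) ⊓ alternatingGroup ((N × ZMod p ⊕ Q) × ZMod p ⊕ R) := by
      rintro _ ⟨x, hx, rfl⟩
      exact ⟨hT hx, x.2⟩
    rw [topWr, ← hP₁] at hT'
    have hle := le_of_closed hI hRp P₁ _ hT' (hP₁ ▸ gen_wr _ hgen) ?_ ?_
    · intro g hg
      obtain ⟨y, hy, e⟩ := hle ⟨by rw [hP₁]; exact hg, g.2⟩
      exact Subtype.ext e ▸ hy
    · rintro _ ⟨x, hx, rfl⟩ g hg hmem
      rw [hP₁] at hmem
      exact ⟨_, hcl x hx ⟨g, hg⟩ hmem, rfl⟩
    · rwa [Ne, Subgroup.map_eq_bot_iff_of_injective _ (Subgroup.subtype_injective _)]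
  · intro h hh
    rcases hp.out.eq_two_or_odd' with h2 | hodd
    · have hS := hN2 h2 h hh
      refine Subgroup.subset_closure ⟨hh, _, le_rfl, fun z hz => hN2 h2 z ?_, Subgroup.subset_closure ⟨hh, ?_⟩⟩
      · refine Subgroup.mem_normalizer_iff.2 fun x => ⟨fun hx => ?_, fun hx => ?_⟩
        · rwa [hz x hx, mul_inv_cancel_right]
        · have e := hz _ hx
          have e' : z * x * z⁻¹ = x := by
            calc z * x * z⁻¹ = z⁻¹ * (z * (z * x * z⁻¹)) := by group
              _ = z⁻¹ * (z * x * z⁻¹ * z) := by rw [e]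
              _ = x := by group
          rwa [e'] at hx
      · obtain ⟨P₂, hP₂⟩ := exists_sylow_eq_wr (R := R) (by rwa [Nat.card_eq_fintype_card]) P₁
        have hmem : (alternatingGroup _).subtype h ∈ (P₂ : Subgroup (Perm _)) := by rw [hP₂, hP₁]; exact hS
        obtain ⟨k, hk⟩ := P₂.isPGroup' ⟨_, hmem⟩
        exact ⟨k, (alternatingGroup _).subtype_injective ((map_pow _ h _).trans (congrArg Subtype.val hk))⟩
    have hWA := topWr_le_alternating (Q := Q) (R := R) hodd hQ hRp P
    have hh' : ((alternatingGroup _).subtype h : Perm ((N × ZMod p ⊕ Q) × ZMod p ⊕ R)) ∈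
        Subgroup.normalizer (topWr p Q R (P : Subgroup (Perm N)) : Set _) := by
      refine Subgroup.mem_normalizer_iff.2 fun x => ⟨fun hx => ?_, fun hx => ?_⟩
      · exact (Subgroup.mem_normalizer_iff.1 hh ⟨x, hWA hx⟩).1 hx
      · have hxA : x ∈ alternatingGroup ((N × ZMod p ⊕ Q) × ZMod p ⊕ R) := by
          have := mul_mem (mul_mem (inv_mem h.2) (hWA hx)) h.2
          simpa [mul_assoc] using this
        exact (Subgroup.mem_normalizer_iff.1 hh ⟨x, hxA⟩).2 hx
    have hgo := torus_generated hodd hR P h.2 hh'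
    have hle : Subgroup.closure {g | g ∈ Subgroup.normalizer (topWr p Q R (P : Subgroup (Perm N)) : Set _) ∧
        ∃ H : Subgroup (Perm ((N × ZMod p ⊕ Q) × ZMod p ⊕ R)), H ≤ topWr p Q R (P : Subgroup (Perm N)) ∧
          (∀ z, (∀ x ∈ H, z * x = x * z) → z ∈ H) ∧ g ∈ pNorm p H} ≤
        (Subgroup.closure {g | g ∈ Subgroup.normalizer (topAlt p Q R (P : Subgroup (Perm N)) : Set _) ∧
          ∃ H, H ≤ topAlt p Q R (P : Subgroup (Perm N)) ∧ (∀ z, (∀ x ∈ H, z * x = x * z) → z ∈ H) ∧
          g ∈ Subgroup.closure {u | u ∈ Subgroup.normalizer (H : Set _) ∧ ∃ k : ℕ, u ^ p ^ k = 1}}).map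
          (alternatingGroup _).subtype := by
      rw [Subgroup.closure_le]
      rintro g ⟨hgW, H, hH, hHc, hgH⟩
      have hgA : g ∈ alternatingGroup _ := ((Subgroup.closure_le _).2 fun u hu => hu.1) hgH
      refine ⟨⟨g, hgA⟩, Subgroup.subset_closure ⟨?_, H.comap (alternatingGroup _).subtype,
        Subgroup.comap_mono hH, fun z hz => hHc z fun x hx => ?_, ?_⟩, rfl⟩
      · exact Subgroup.mem_normalizer_iff.2 fun x => Subgroup.mem_normalizer_iff.1 hgW x
      · exact congrArg Subtype.val (hz ⟨x, hWA (hH hx)⟩ hx)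
      · have hsub : pNorm p H ≤ (Subgroup.closure {u | u ∈ Subgroup.normalizer
            ((H.comap (alternatingGroup _).subtype : Subgroup _) : Set _) ∧
            ∃ k : ℕ, u ^ p ^ k = 1}).map (alternatingGroup _).subtype := by
          rw [pNorm, Subgroup.closure_le]
          rintro u ⟨huA, huN, k, hk⟩
          exact ⟨⟨u, huA⟩, Subgroup.subset_closure
            ⟨Subgroup.mem_normalizer_iff.2 fun x => Subgroup.mem_normalizer_iff.1 huN x,
              k, Subtype.ext hk⟩, rfl⟩
        obtain ⟨y, hy, e⟩ := hsub hgH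
        exact (show y = ⟨g, hgA⟩ from Subtype.ext e) ▸ hy
    obtain ⟨y, hy, e⟩ := hle hgo
    exact Subtype.ext e ▸ hy

omit [DecidableEq N] [DecidableEq Q] [DecidableEq R] [Fintype N] [Fintype Q] [Fintype R] [NeZero p] in
/-- The fusion systems of alternating groups on Sylow `p`-subgroups are simple. -/
theorem isSimple_fusion_alternating {n : ℕ} (hn : 6 ≤ n) (hnp : p ^ 2 ≤ n) (hb : n % p ≤ 1)
    (S : Sylow p (alternatingGroup (Fin n))) :
    (Cfsg.groupFusionSystem (S : Subgroup (alternatingGroup (Fin n)))).IsSimple p := by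
  have hp0 := hp.out.pos
  have hp2 := hp.out.two_le
  have : NeZero p := ⟨hp.out.ne_zero⟩
  have hmp : p ≤ n / p := by rwa [Nat.le_div_iff_mul_le hp0, ← sq]
  have hm3 : 3 ≤ n / p := by
    rcases hp.out.eq_two_or_odd' with h | ⟨c, hc⟩
    · subst h; omega
    · exact le_trans (by omega) hmp
  obtain ⟨e₁⟩ := exists_equiv_model p (Fin (n / p))
  obtain ⟨e₀⟩ := exists_equiv_model p (Fin n)
  rw [Nat.card_fin] at e₁ e₀
  let e := (Equiv.sumCongr (Equiv.prodCongr e₁ (Equiv.refl (ZMod p))) (Equiv.refl (Fin (n % p)))).trans e₀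
  obtain ⟨P⟩ := (inferInstance : Nonempty (Sylow p (Perm (Fin (n / p / p)))))
  have hQ : Fintype.card (Fin (n / p % p)) < p := by rw [Fintype.card_fin]; exact Nat.mod_lt _ hp0
  have hR : Fintype.card (Fin (n % p)) ≤ 1 := by rwa [Fintype.card_fin]
  have hI : 3 ≤ Fintype.card (Fin (n / p / p) × ZMod p ⊕ Fin (n / p % p)) := by
    rw [Fintype.card_congr e₁, Fintype.card_fin]; exact hm3
  obtain ⟨P₁, hP₁⟩ := exists_sylow_eq_wr (R := Fin (n / p % p))
    (by rwa [Nat.card_eq_fintype_card]) P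
  obtain ⟨Q', hQ'⟩ := (S.isPGroup'.map (alternatingGroup (Fin n)).subtype).exists_le_sylow
  have hS : (S : Subgroup (alternatingGroup (Fin n))) =
      (Q' : Subgroup (Perm (Fin n))).comap (alternatingGroup (Fin n)).subtype :=
    (S.is_maximal' (Q'.isPGroup'.comap_of_injective _ Subtype.coe_injective)
      (Subgroup.map_le_iff_le_comap.1 hQ')).symm
  obtain ⟨e', he'⟩ := exists_equiv_wr (lt_of_le_of_lt hR hp.out.one_lt) e P₁ Q'
  rw [hP₁] at he'
  have hmap : (topAlt p (Fin (n / p % p)) (Fin (n % p)) (P : Subgroup (Perm (Fin (n / p / p))))).map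
      e'.altCongrHom.toMonoidHom = (S : Subgroup (alternatingGroup (Fin n))) := by
    rw [hS, he']
    ext g
    constructor
    · rintro ⟨x, hx, rfl⟩
      exact ⟨x, hx, rfl⟩
    · rintro ⟨x, hx, hxg⟩
      refine ⟨e'.altCongrHom.symm g, ?_, MulEquiv.apply_symm_apply _ _⟩
      show (alternatingGroup _).subtype (e'.altCongrHom.symm g) ∈ topWr p _ _ _
      have h1 : (alternatingGroup _).subtype (e'.altCongrHom.symm g) = x := by
        apply e'.permCongrHom.injective
        rw [show e'.permCongrHom x = (g : Perm (Fin n)) from hxg]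
        exact congrArg Subtype.val (MulEquiv.apply_symm_apply e'.altCongrHom g)
      rw [h1]
      exact hx
  have : Nonempty (Fin (n / p / p)) := ⟨⟨0, Nat.div_pos hmp hp0⟩⟩
  refine isSimple_of_good S ?_ (hmap ▸ (good_model hI hQ hR P (gen_all p P).1 ?_).map _)
  · intro h
    have hcard : p ∣ Nat.card (alternatingGroup (Fin n)) := by
      have : Nontrivial (Fin n) := Fin.nontrivial_iff_two_le.2 (by omega)
      rw [nat_card_alternatingGroup, Nat.card_fin]
      rcases hp.out.eq_two_or_odd' with h2 | hodd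
      · subst h2
        refine Nat.dvd_div_of_mul_dvd ((show 2 * 2 ∣ (4).factorial by decide).trans ?_)
        exact Nat.factorial_dvd_factorial (by omega)
      · have hcop : Nat.Coprime p 2 := (Nat.coprime_two_right).2 hodd
        refine hcop.dvd_of_dvd_mul_left ?_
        rw [Nat.mul_div_cancel' (Nat.dvd_factorial two_pos (by omega))]
        exact Nat.dvd_factorial hp0 (hmp.trans (Nat.div_le_self n p))
    exact S.ne_bot_of_dvd_card hcard h
  · intro h2
    subst h2
    intro h hh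
    have h1 : e'.altCongrHom h ∈ Subgroup.normalizer ((S : Subgroup (alternatingGroup (Fin n))) : Set _) := by
      rw [← hmap, ← Subgroup.map_equiv_normalizer_eq]
      exact ⟨h, hh, rfl⟩
    rw [CfsgLib.SymSylow.normalizer_sylow_alternating (by rwa [Fintype.card_fin]) S, ← hmap] at h1
    obtain ⟨x, hx, e⟩ := h1
    exact e'.altCongrHom.injective e ▸ hx

end CfsgLib.SymSylow.Mono
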