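import Cfsg.Agent.SymSylow.Generated

/-!
Strongly closed subgroups of a Sylow subgroup of an alternating group, in the monomial model.
-/

set_option autoImplicit false

namespace CfsgLib.SymSylow.Mono

open Equiv

variable {p : ℕ} {I R : Type*} [hp : Fact p.Prime] [DecidableEq I] [DecidableEq R] [Fintype I]
  [Fintype R]

omit hp [DecidableEq I] [DecidableEq R] [Fintype I] [Fintype R] in
theorem commute_trans (b b' : I → ZMod p) : Commute (mo (R := R) 1 1 b) (mo 1 1 b') := by
  rw [commute_iff_eq, mo_trans_mul, mo_trans_mul, add_comm]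

omit [DecidableEq I] [DecidableEq R] [Fintype I] [Fintype R] in
theorem commute_perm_trans {π : Perm I} {b : I → ZMod p} (h : ∀ i, b (π i) = b i) :
    Commute (mo (R := R) π 1 0) (mo 1 1 b) := by
  rw [commute_iff_eq, mo_one_one_mul, mo_one_one_mul]
  simp [h]

/-- The centralizer of a translation contains an odd permutation. -/
theorem exists_odd_commute (hI : 3 ≤ Fintype.card I) (b : I → ZMod p)
    (hb : ∀ i, b i = 0 ∨ b i = 1) :
    ∃ d : Perm (I × ZMod p ⊕ R), Perm.sign d = -1 ∧ Commute d (mo 1 1 b) := by
  have : NeZero p := ⟨hp.out.ne_zero⟩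
  rcases hp.out.eq_two_or_odd' with h2 | hodd
  · obtain ⟨i⟩ : Nonempty I := Fintype.card_pos_iff.1 (by omega)
    exact ⟨mo 1 1 (Pi.single i 1), sign_mo_single_two h2 i, commute_trans _ _⟩
  · obtain ⟨i, j, hij, he⟩ := Fintype.exists_ne_map_eq_of_card_lt (fun i => decide (b i = 0))
      (by rw [Fintype.card_bool]; omega)
    have hbij : b i = b j := by
      rcases hb i with e | e <;> rcases hb j with e' | e' <;> simp_all
    refine ⟨mo (Equiv.swap i j) 1 0, ?_, commute_perm_trans fun k => ?_⟩
    · rw [sign_mo_perm, Perm.sign_swap hij, hodd.neg_one_pow]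
    · rcases eq_or_ne k i with rfl | hki
      · rw [swap_apply_left, hbij]
      rcases eq_or_ne k j with rfl | hkj
      · rw [swap_apply_right, hbij]
      rw [swap_apply_of_ne_of_ne hki hkj]

/-- The translation by the indicator of `J`. -/
def indVec (p : ℕ) (J : Finset I) : I → ZMod p := fun i => if i ∈ J then 1 else 0

theorem card_support_indVec [NeZero p] (J : Finset I) :
    (mo (R := R) 1 1 (indVec p J)).support.card = p * J.card := by
  rw [card_support_trans]
  congr 2
  ext i
  simp [indVec]

/-- An element of exponent `p` is conjugate by an even permutation to any indicator translation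
with support of the same size. -/
theorem exists_even_conj (hI : 3 ≤ Fintype.card I) [NeZero p] {x : Perm (I × ZMod p ⊕ R)}
    (hx : x ^ p = 1) {J : Finset I} (hJ : x.support.card = p * J.card) :
    ∃ g ∈ alternatingGroup (I × ZMod p ⊕ R), g * x * g⁻¹ = mo 1 1 (indVec p J) := by
  obtain ⟨c, hc⟩ := isConj_iff.1 (isConj_of_pow_prime hx (mo_trans_pow_prime (indVec p J))
    (hJ.trans (card_support_indVec (R := R) (p := p) J).symm))
  rcases Int.units_eq_one_or (Perm.sign c) with e | e
  · exact ⟨c, e, hc⟩
  obtain ⟨d, hd, hdc⟩ := exists_odd_commute (R := R) hI (indVec p J) fun i => by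
    by_cases h : i ∈ J <;> simp [indVec, h]
  refine ⟨d * c, ?_, ?_⟩
  · rw [Perm.mem_alternatingGroup, map_mul, hd, e]
    rfl
  · rw [mul_inv_rev, show d * c * x * (c⁻¹ * d⁻¹) = d * (c * x * c⁻¹) * d⁻¹ by group, hc, hdc.eq,
      mul_inv_cancel_right]

/-- A nontrivial strongly closed subgroup of the Sylow subgroup of the alternating group is
everything. -/
theorem le_of_closed (hI : 3 ≤ Fintype.card I) (hR : Fintype.card R < p)
    (P : Sylow p (Perm I)) (T : Subgroup (Perm (I × ZMod p ⊕ R)))
    (hT : T ≤ wr (P : Subgroup (Perm I)) ⊓ alternatingGroup (I × ZMod p ⊕ R))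
    (hgen : (P : Subgroup (Perm I)) ≤ Subgroup.closure {g | g ∈ (P : Subgroup (Perm I)) ∧ g ^ p = 1})
    (hcl : ∀ x ∈ T, ∀ g ∈ alternatingGroup (I × ZMod p ⊕ R),
      g * x * g⁻¹ ∈ wr (P : Subgroup (Perm I)) → g * x * g⁻¹ ∈ T)
    (hT1 : T ≠ ⊥) :
    wr (P : Subgroup (Perm I)) ⊓ alternatingGroup (I × ZMod p ⊕ R) ≤ T := by
  have : NeZero p := ⟨hp.out.ne_zero⟩
  obtain ⟨Q, hQ⟩ := exists_sylow_eq_wr (R := R) (by rwa [Nat.card_eq_fintype_card]) P
  -- an element of exponent `p` of `T` puts a whole class of translations in `T`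
  have hclass : ∀ x ∈ T, x ^ p = 1 → ∀ J : Finset I, x.support.card = p * J.card →
      mo 1 1 (indVec p J) ∈ T := by
    intro x hx hxp J hJ
    obtain ⟨g, hg, e⟩ := exists_even_conj hI hxp hJ
    rw [← e]
    exact hcl x hx g hg (e ▸ trans_mem_wr _ _)
  -- an element of order `p`
  obtain ⟨x, hxT, hxp, hx1⟩ : ∃ x ∈ T, x ^ p = 1 ∧ x ≠ 1 := by
    have hTp : IsPGroup p T := (Q.isPGroup'.to_le (hQ ▸ hT.trans inf_le_left))
    have : Nontrivial T := (Subgroup.nontrivial_iff_ne_bot T).2 hT1
    obtain ⟨m, hm0, hm⟩ := hTp.nontrivial_iff_card.1 this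
    obtain ⟨y, hy⟩ := exists_prime_orderOf_dvd_card' (G := T) p (hm ▸ dvd_pow_self p hm0.ne')
    refine ⟨y, y.2, ?_, fun h => ?_⟩
    · have e : y ^ p = 1 := orderOf_dvd_iff_pow_eq_one.1 (dvd_of_eq hy)
      exact congrArg Subtype.val e
    · rw [show y = 1 from Subtype.ext h, orderOf_one] at hy
      exact hp.out.one_lt.ne hy
  obtain ⟨J₀, hJ₀⟩ := exists_card_support_eq hR hxp
  have hk : 0 < J₀.card := by
    rcases Nat.eq_zero_or_pos J₀.card with h | h
    · rw [h, mul_zero, Finset.card_eq_zero, Perm.support_eq_empty_iff] at hJ₀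
      exact absurd hJ₀ hx1
    · exact h
  have hkI : J₀.card ≤ Fintype.card I := J₀.card_le_univ
  have hall : ∀ J : Finset I, J.card = J₀.card → mo (R := R) 1 1 (indVec p J) ∈ T :=
    fun J hJ => hclass x hxT hxp J (hJ ▸ hJ₀)
  -- all even translations are in `T`
  have htrans : ∀ b, mo (R := R) 1 1 b ∈ alternatingGroup (I × ZMod p ⊕ R) → mo 1 1 b ∈ T := by
    rcases hp.out.eq_two_or_odd' with h2 | hodd
    · subst h2
      -- a weight `k < |I|` all of whose translations are in `T`
      obtain ⟨k, hk0, hkI', hk⟩ : ∃ k, 0 < k ∧ k < Fintype.card I ∧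
          ∀ J : Finset I, J.card = k → mo (R := R) 1 1 (indVec 2 J) ∈ T := by
        rcases hkI.lt_or_eq with hlt | hfull
        · exact ⟨_, hk, hlt, hall⟩
        -- the fixed point free case
        obtain ⟨a, b, hab⟩ : ∃ a b : I, a ≠ b :=
          Fintype.exists_pair_of_one_lt_card (by omega)
        have hsw : IsPGroup 2 (Subgroup.zpowers (Equiv.swap a b)) := by
          refine IsPGroup.iff_card.2 ⟨1, ?_⟩
          rw [Nat.card_zpowers, pow_one]
          exact orderOf_eq_prime (by rw [sq, Equiv.swap_mul_self]) (swap_eq_one_iff.not.2 hab)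
        obtain ⟨P', hP'⟩ := hsw.exists_le_sylow
        obtain ⟨c, hc⟩ := MulAction.exists_smul_eq (Perm I) P' P
        have hmem : Equiv.swap (c a) (c b) ∈ (P : Subgroup (Perm I)) := by
          rw [← hc, Equiv.swap_apply_apply]
          exact ⟨_, hP' (Subgroup.mem_zpowers _), rfl⟩
        have hcab : c a ≠ c b := c.injective.ne hab
        set one : I → ZMod 2 := indVec 2 Finset.univ with hone
        have honeT : mo (R := R) 1 1 one ∈ T := hall _ (by rw [Finset.card_univ, hfull])
        set u : I → ZMod 2 := fun i => if i = c a ∨ i = c b then 0 else 1 with hu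
        set U := mo (R := R) (Equiv.swap (c a) (c b)) 1 u with hU
        have hUp : U ^ 2 = 1 := by
          rw [hU, sq, mo_one_one_mul, Equiv.swap_mul_self]
          refine (congrArg (fun v => mo (R := R) 1 1 v) (funext fun i => ?_)).trans mo_one
          show u i + u (Equiv.swap (c a) (c b) i) = 0
          have : u (Equiv.swap (c a) (c b) i) = u i := by
            rcases eq_or_ne i (c a) with rfl | h₁
            · simp [hu]
            rcases eq_or_ne i (c b) with rfl | h₂
            · simp [hu]
            rw [Equiv.swap_apply_of_ne_of_ne h₁ h₂]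
          rw [this, CharTwo.add_self_eq_zero]
        have hUsupp : U.support.card = 2 * (Finset.univ : Finset I).card := by
          rw [hU, card_support_mo]
          congr 2
          refine Finset.filter_true_of_mem fun i _ => ?_
          rcases eq_or_ne i (c a) with rfl | h₁
          · exact Or.inl (by rw [Equiv.swap_apply_left]; exact hcab.symm)
          rcases eq_or_ne i (c b) with rfl | h₂
          · exact Or.inl (by rw [Equiv.swap_apply_right]; exact hcab)
          exact Or.inr (by simp [hu, h₁, h₂])
        obtain ⟨g, hg, hge⟩ := exists_even_conj hI hUp hUsupp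
        have hUT : U ∈ T := by
          have e : g⁻¹ * mo 1 1 one * g⁻¹⁻¹ = U := by rw [hone, ← hge]; group
          rw [← e]
          exact hcl _ honeT _ (inv_mem hg) (e ▸ mo_mem_wr hmem u)
        have hprod : U * mo 1 1 one = mo (R := R) (Equiv.swap (c a) (c b)) 1 (one + u) := by
          rw [hU, mo_conj_trans]
        refine ⟨2, two_pos, by omega, fun J hJ => hclass _ (T.mul_mem hUT honeT) ?_ J ?_⟩
        · have hcomm : Commute U (mo (R := R) 1 1 one) := by
            rw [commute_iff_eq, hU, mo_one_one_mul, mo_one_one_mul, one_mul, mul_one]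
            refine congrArg (fun v => mo _ 1 v) (funext fun i => ?_)
            simp [hone, indVec, add_comm]
          rw [hcomm.mul_pow, hUp, mo_trans_pow_prime, one_mul]
        · rw [hprod, card_support_mo, hJ]
          congr 1
          refine Eq.trans ?_ (Finset.card_pair hcab)
          congr 1
          ext i
          rcases eq_or_ne i (c a) with rfl | h₁
          · simp [hcab.symm]
          rcases eq_or_ne i (c b) with rfl | h₂
          · simp [hcab]
          simp [h₁, h₂, hu, hone, indVec, Equiv.swap_apply_of_ne_of_ne, CharTwo.add_self_eq_zero]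
      intro b hb
      refine mem_of_sign_of_pairs rfl (transIn T) (fun i j hij => ?_) hb
      obtain ⟨J, hiJ, hJ, hJc⟩ := Finset.exists_subsuperset_card_eq
        (s := {i}) (t := (Finset.univ : Finset I).erase j) (n := k)
        (Finset.singleton_subset_iff.2 (Finset.mem_erase.2 ⟨hij, Finset.mem_univ _⟩))
        (by rw [Finset.card_singleton]; exact hk0)
        (by rw [Finset.card_erase_of_mem (Finset.mem_univ _), Finset.card_univ]; omega)
      rw [Finset.singleton_subset_iff] at hiJ
      have hjJ : j ∉ J := fun h => (Finset.mem_erase.1 (hJ h)).1 rfl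
      have hJ'c : (insert j (J.erase i)).card = k := by
        rw [Finset.card_insert_of_notMem fun h => hjJ (Finset.mem_of_mem_erase h),
          Finset.card_erase_of_mem hiJ]
        omega
      have e : Pi.single i 1 + Pi.single j 1 = indVec 2 J + indVec 2 (insert j (J.erase i)) := by
        funext l
        rcases eq_or_ne l i with rfl | hli
        · simp [indVec, hiJ, hij]
        rcases eq_or_ne l j with rfl | hlj
        · simp [indVec, hjJ, hli]
        by_cases hl : l ∈ J <;> simp [indVec, hl, hli, hlj, CharTwo.add_self_eq_zero]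
      rw [mem_transIn, e, ← mo_trans_mul]
      exact T.mul_mem (hk J hJc) (hk _ hJ'c)
    · intro b _
      have h2 : (2 : ZMod p) ≠ 0 := fun h => by
        have h' : ((2 : ℕ) : ZMod p) = 0 := by exact_mod_cast h
        rw [ZMod.natCast_eq_zero_iff, Nat.prime_dvd_prime_iff_eq hp.out Nat.prime_two] at h'
        exact absurd (h' ▸ hodd) (by decide)
      suffices ∀ i, Pi.single (M := fun _ : I => ZMod p) i 1 ∈ transIn T by
        rw [← mem_transIn, ← Finset.univ_sum_single b]
        refine AddSubgroup.sum_mem _ fun i _ => ?_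
        rw [← ZMod.natCast_zmod_val (b i), ← nsmul_one]
        rw [show Pi.single (M := fun _ : I => ZMod p) i ((b i).val • (1 : ZMod p)) =
          (b i).val • Pi.single i 1 from map_nsmul (AddMonoidHom.single (fun _ : I => ZMod p) i) _ _]
        exact AddSubgroup.nsmul_mem _ (this i) _
      intro i
      obtain ⟨J, hiJ, -, hJc⟩ := Finset.exists_subsuperset_card_eq
        (s := {i}) (t := (Finset.univ : Finset I)) (n := J₀.card) (Finset.subset_univ _)
        (by rw [Finset.card_singleton]; exact hk) (by rwa [Finset.card_univ])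
      rw [Finset.singleton_subset_iff] at hiJ
      have h1 := hall J hJc
      have hb' : mo (R := R) 1 1 (indVec p J + Pi.single i 1) ∈ T := by
        have hs : (mo (R := R) 1 1 (indVec p J + Pi.single i 1)).support.card = p * J.card := by
          rw [card_support_trans]
          congr 2
          ext l
          refine Finset.mem_filter.trans ?_
          show l ∈ Finset.univ ∧ (if l ∈ J then (1 : ZMod p) else 0) + (Pi.single i 1 : I → ZMod p) l ≠ 0 ↔ l ∈ J
          rcases eq_or_ne l i with rfl | hli
          · rw [if_pos hiJ, Pi.single_eq_same, one_add_one_eq_two]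
            simp [hiJ, h2]
          by_cases hl : l ∈ J <;> simp [hl, Pi.single_eq_of_ne hli]
        obtain ⟨g, hg, hge⟩ := exists_even_conj hI (mo_trans_pow_prime _) hs
        have e : g⁻¹ * mo 1 1 (indVec p J) * g⁻¹⁻¹ = mo 1 1 (indVec p J + Pi.single i 1) := by
          rw [← hge]; group
        rw [← e]
        exact hcl _ h1 _ (inv_mem hg) (e ▸ trans_mem_wr _ _)
      have := (transIn T).sub_mem hb' h1
      rwa [add_sub_cancel_left] at this
  refine (gen_wr_even _ hgen).trans ((Subgroup.closure_le _).2 ?_)
  rintro z ⟨hz, hzp⟩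
  obtain ⟨J, hJ⟩ := exists_card_support_eq hR hzp
  obtain ⟨g, hg, hge⟩ := exists_even_conj hI hzp hJ
  have hyA : mo (R := R) 1 1 (indVec p J) ∈ alternatingGroup (I × ZMod p ⊕ R) := by
    rw [← hge]
    exact mul_mem (mul_mem hg hz.2) (inv_mem hg)
  have e : g⁻¹ * mo 1 1 (indVec p J) * g⁻¹⁻¹ = z := by rw [← hge]; group
  rw [← e]
  exact hcl _ (htrans _ hyA) _ (inv_mem hg) (e ▸ hz.1)

end CfsgLib.SymSylow.Mono
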