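import Cfsg.Agent.SymSylow.Generated

/-!
The torus of the normalizer of the elementary abelian subgroup of a monomial model, for odd `p`.
-/

set_option autoImplicit false

namespace CfsgLib.SymSylow.Mono

open Equiv

/-- The subgroup generated by the even elements of `p`-power order normalizing `H`. -/
def pNorm (p : ℕ) {Ω : Type*} [DecidableEq Ω] [Fintype Ω] (H : Subgroup (Perm Ω)) :
    Subgroup (Perm Ω) :=
  Subgroup.closure {g | g ∈ alternatingGroup Ω ∧ g ∈ Subgroup.normalizer (H : Set (Perm Ω)) ∧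
    ∃ k : ℕ, g ^ p ^ k = 1}

/-- The elementary abelian subgroup of the translations. -/
abbrev transGroup (p : ℕ) (I R : Type*) : Subgroup (Perm (I × ZMod p ⊕ R)) :=
  wr (⊥ : Subgroup (Perm I))

variable {p : ℕ} {I R : Type*} [hp : Fact p.Prime] [DecidableEq I] [DecidableEq R] [Fintype I]
  [Fintype R]

omit hp [DecidableEq I] [DecidableEq R] [Fintype I] [Fintype R] in
theorem mem_wr_bot {g : Perm (I × ZMod p ⊕ R)} :
    g ∈ wr (⊥ : Subgroup (Perm I)) ↔ ∃ b, g = mo 1 1 b :=
  ⟨fun ⟨_, hπ, b, e⟩ => ⟨b, Subgroup.mem_bot.1 hπ ▸ e⟩,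
    fun ⟨b, e⟩ => ⟨1, Subgroup.one_mem _, b, e⟩⟩

omit [DecidableEq I] [DecidableEq R] [Fintype I] [Fintype R] in
theorem mo_conj_translation (σ : Perm I) (a : I → (ZMod p)ˣ) (b c : I → ZMod p) :
    mo σ a b * mo 1 1 c * (mo σ a b)⁻¹ =
      mo (R := R) 1 1 (fun i => (a (σ⁻¹ i) : ZMod p) * c (σ⁻¹ i)) := by
  rw [mul_inv_eq_iff_eq_mul, mo_mul, mo_mul]
  refine ext_inl (fun i y => ?_) fun r => rfl
  simp [add_comm]

omit [DecidableEq I] [DecidableEq R] in
theorem mo_mem_normalizer_bot (σ : Perm I) (a : I → (ZMod p)ˣ) (b : I → ZMod p) :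
    mo (R := R) σ a b ∈ Subgroup.normalizer (transGroup p I R : Set (Perm (I × ZMod p ⊕ R))) := by
  have : NeZero p := ⟨hp.out.ne_zero⟩
  refine Subgroup.mem_normalizer_fintype fun g hg => ?_
  obtain ⟨c, rfl⟩ := mem_wr_bot.1 hg
  rw [mo_conj_translation]
  exact mem_wr_bot.2 ⟨_, rfl⟩

omit hp in
theorem conj_mem_pNorm [NeZero p] {H : Subgroup (Perm (I × ZMod p ⊕ R))}
    {d g : Perm (I × ZMod p ⊕ R)}
    (hd : d ∈ Subgroup.normalizer (H : Set (Perm (I × ZMod p ⊕ R)))) (hg : g ∈ pNorm p H) :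
    d * g * d⁻¹ ∈ pNorm p H := by
  refine (?_ : pNorm p H ≤ (pNorm p H).comap (MulAut.conj d).toMonoidHom) hg
  refine (Subgroup.closure_le _).2 fun u hu => Subgroup.subset_closure ⟨?_, ?_, ?_⟩
  · show Perm.sign (d * u * d⁻¹) = 1
    rw [map_mul, map_mul, map_inv, show Perm.sign u = 1 from hu.1, mul_one, mul_inv_cancel]
  · exact mul_mem (mul_mem hd hu.2.1) (inv_mem hd)
  · obtain ⟨k, hk⟩ := hu.2.2
    exact ⟨k, by rw [← map_pow, hk, map_one]⟩

/-- Lifts of even permutations lie in `pNorm`. -/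
theorem perm_mem_pNorm [NeZero p] (hodd : Odd p) (hI : 3 ≤ Fintype.card I)
    (hpI : p ≤ Fintype.card I) {σ : Perm I} (hσ : σ ∈ alternatingGroup I) :
    mo (R := R) σ 1 0 ∈ pNorm p (transGroup p I R) := by
  set K := pNorm p (transGroup p I R)
  set L : Subgroup (Perm I) := K.comap permHom with hL
  have hgen : ∀ τ : Perm I, (∃ k : ℕ, τ ^ p ^ k = 1) → τ ∈ L := by
    rintro τ ⟨k, hk⟩
    refine Subgroup.subset_closure ⟨?_, mo_mem_normalizer_bot (R := R) (p := p) τ 1 0, k, ?_⟩
    · show Perm.sign (mo (R := R) (p := p) τ 1 0) = 1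
      rw [sign_mo_perm, sign_eq_one_of_pow_odd hodd.pow hk, one_pow]
    · rw [← map_pow, hk, map_one]
  refine (?_ : alternatingGroup I ≤ L) hσ
  rcases lt_or_ge (Fintype.card I) 5 with h5 | h5
  · have hp3 : p = 3 := by
      have h2 := hp.out.two_le
      obtain ⟨c, hc⟩ := hodd
      omega
    rw [← Perm.closure_three_cycles_eq_alternating, Subgroup.closure_le]
    intro τ hτ
    refine hgen τ ⟨1, ?_⟩
    rw [pow_one, hp3, ← hτ.orderOf, pow_orderOf_eq_one]
  · have hsimple : IsSimpleGroup (alternatingGroup I) :=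
      alternatingGroup.isSimpleGroup (by rwa [Nat.card_eq_fintype_card])
    have hnorm : (L.subgroupOf (alternatingGroup I)).Normal := by
      refine ⟨fun n hn g => ?_⟩
      rw [Subgroup.mem_subgroupOf, hL, Subgroup.mem_comap] at hn ⊢
      rw [Subgroup.coe_mul, Subgroup.coe_mul, Subgroup.coe_inv, map_mul, map_mul, map_inv]
      exact conj_mem_pNorm (mo_mem_normalizer_bot (g : Perm I) 1 0) hn
    rcases hnorm.eq_bot_or_eq_top with h | h
    · exfalso
      have hd : p ∣ Nat.card (Perm I) := by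
        rw [Nat.card_perm]
        exact Nat.dvd_factorial hp.out.pos (by rwa [Nat.card_eq_fintype_card])
      obtain ⟨τ, hτ⟩ := exists_prime_orderOf_dvd_card' p hd
      have hτp : τ ^ p = 1 := orderOf_dvd_iff_pow_eq_one.1 (dvd_of_eq hτ)
      have hmem : (⟨τ, sign_eq_one_of_pow_odd hodd hτp⟩ : alternatingGroup I) ∈
          L.subgroupOf (alternatingGroup I) := hgen τ ⟨1, by rwa [pow_one]⟩
      rw [h, Subgroup.mem_bot, Subtype.ext_iff] at hmem
      rw [show τ = 1 from hmem, orderOf_one] at hτ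
      exact hp.out.one_lt.ne hτ
    · exact Subgroup.subgroupOf_eq_top.1 h

omit [DecidableEq I] [DecidableEq R] [Fintype I] [Fintype R] in
theorem mo_torus_mul (a a' : I → (ZMod p)ˣ) :
    mo (R := R) 1 a 0 * mo 1 a' 0 = mo 1 (a * a') 0 := by
  rw [mo_mul]
  refine ext_inl (fun i y => ?_) fun r => rfl
  simp

set_option maxHeartbeats 1000000 in
/-- Torus elements of product one lie in `pNorm`. -/
theorem torus_mem_pNorm [NeZero p] (hodd : Odd p) (hI : 3 ≤ Fintype.card I)
    (hpI : p ≤ Fintype.card I) {a : I → (ZMod p)ˣ} (ha : ∏ i, a i = 1) :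
    mo (R := R) 1 a 0 ∈ pNorm p (transGroup p I R) := by
  set K := pNorm p (transGroup p I R)
  let φ : (I → (ZMod p)ˣ) →* Perm (I × ZMod p ⊕ R) :=
    { toFun := fun a => mo 1 a 0
      map_one' := mo_one
      map_mul' := fun a a' => (mo_torus_mul a a').symm }
  have hpair : ∀ (i j : I) (v : (ZMod p)ˣ), Pi.mulSingle i v / Pi.mulSingle j v ∈ K.comap φ := by
    intro i j v
    rcases eq_or_ne i j with rfl | hij
    · rw [div_self']
      exact one_mem _
    obtain ⟨k, -, hk⟩ := Finset.exists_mem_notMem_of_card_lt_card (s := ({i, j} : Finset I))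
      (t := Finset.univ) (by rw [Finset.card_pair hij, Finset.card_univ]; omega)
    simp only [Finset.mem_insert, Finset.mem_singleton, not_or] at hk
    set σ : Perm I := Equiv.swap i k * Equiv.swap i j with hσ
    have hσi : σ⁻¹ j = i := by
      rw [Perm.inv_eq_iff_eq, hσ, Perm.mul_apply, swap_apply_left,
        swap_apply_of_ne_of_ne hij.symm (Ne.symm hk.2)]
    have hσA : σ ∈ alternatingGroup I := by
      rw [Perm.mem_alternatingGroup, hσ, map_mul, Perm.sign_swap hij, Perm.sign_swap (Ne.symm hk.1)]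
      rfl
    let w : I → (ZMod p)ˣ := Pi.mulSingle i v
    let w' : I → (ZMod p)ˣ := fun l => (w (σ⁻¹ l))⁻¹
    set d := mo (R := R) (p := p) 1 w 0 with hd
    set s := mo (R := R) (p := p) σ 1 0 with hs'
    have hs : s ∈ K := perm_mem_pNorm hodd hI hpI hσA
    have key : d * s * d⁻¹ * s⁻¹ ∈ K :=
      mul_mem (conj_mem_pNorm (mo_mem_normalizer_bot _ _ _) hs) (inv_mem hs)
    have hdi : d⁻¹ = mo 1 w⁻¹ 0 := by
      refine inv_eq_of_mul_eq_one_right ?_
      rw [hd, mo_torus_mul, mul_inv_cancel, mo_one]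
    have hs2 : s * d⁻¹ = mo (R := R) 1 w' 0 * s := by
      rw [hdi, hs', mo_mul, mo_mul]
      refine ext_inl (fun l y => ?_) fun r => rfl
      simp only [mo_inl, Pi.inv_apply, Pi.one_apply, Pi.zero_apply, w', Perm.inv_def,
        Equiv.symm_apply_apply, one_mul, mul_one, mul_zero, add_zero]
    rw [mul_assoc d s, hs2, ← mul_assoc d, mul_inv_cancel_right, hd, mo_torus_mul] at key
    have e : w * w' = Pi.mulSingle i v / Pi.mulSingle j v := by
      funext l
      rw [Pi.mul_apply, Pi.div_apply, div_eq_mul_inv]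
      refine congrArg (fun z => w l * z⁻¹) ?_
      show Pi.mulSingle (M := fun _ : I => (ZMod p)ˣ) i v (σ⁻¹ l) = _
      rcases eq_or_ne l j with rfl | hl
      · rw [hσi, Pi.mulSingle_eq_same, Pi.mulSingle_eq_same]
      · rw [Pi.mulSingle_eq_of_ne hl, Pi.mulSingle_eq_of_ne]
        exact fun e => hl (σ⁻¹.injective (e.trans hσi.symm))
    rw [e] at key
    exact key
  obtain ⟨i₀⟩ : Nonempty I := Fintype.card_pos_iff.1 (by omega)
  have h := Subgroup.prod_mem (K.comap φ) (t := Finset.univ)
    (f := fun i => Pi.mulSingle i (a i) / Pi.mulSingle i₀ (a i)) fun i _ => hpair i i₀ (a i)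
  rw [Finset.prod_div_distrib, Finset.univ_prod_mulSingle] at h
  have e : ∏ i, Pi.mulSingle (M := fun _ : I => (ZMod p)ˣ) i₀ (a i) = 1 := by
    funext l
    rw [Finset.prod_apply]
    rcases eq_or_ne l i₀ with rfl | hl
    · simp only [Pi.mulSingle_eq_same, Pi.one_apply, ha]
    · simp only [Pi.mulSingle_eq_of_ne hl, Finset.prod_const_one, Pi.one_apply]
  rw [e, div_one] at h
  exact h

/-- A monomial permutation that is even and has torus part of product one lies in `pNorm`. -/
theorem mo_mem_pNorm [NeZero p] (hodd : Odd p) (hI : 3 ≤ Fintype.card I)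
    (hpI : p ≤ Fintype.card I) {σ : Perm I} {a : I → (ZMod p)ˣ} {b : I → ZMod p}
    (hA : mo (R := R) σ a b ∈ alternatingGroup (I × ZMod p ⊕ R)) (ha : ∏ i, a i = 1) :
    mo (R := R) σ a b ∈ pNorm p (transGroup p I R) := by
  have e : mo (R := R) σ a b = mo 1 1 (fun i => b (σ⁻¹ i)) * (mo σ 1 0 * mo 1 a 0) := by
    rw [mo_mul, mo_mul]
    refine ext_inl (fun i y => ?_) fun r => rfl
    simp
  have htr : ∀ c : I → ZMod p, mo (R := R) 1 1 c ∈ pNorm p (transGroup p I R) ∧
      Perm.sign (mo (R := R) 1 1 c) = 1 := fun c => by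
    have hs := sign_eq_one_of_pow_odd hodd (mo_trans_pow_prime (R := R) c)
    exact ⟨Subgroup.subset_closure ⟨hs, mo_mem_normalizer_bot _ _ _, 1, by
      rw [pow_one, mo_trans_pow_prime]⟩, hs⟩
  have hat := torus_mem_pNorm (R := R) hodd hI hpI ha
  have hsign : Perm.sign σ = 1 := by
    have hle : pNorm p (transGroup p I R) ≤
        alternatingGroup (I × ZMod p ⊕ R) := (Subgroup.closure_le _).2 fun g hg => hg.1
    have h := Perm.mem_alternatingGroup.1 hA
    rw [e, map_mul, map_mul, (htr _).2, Perm.mem_alternatingGroup.1 (hle hat), one_mul, mul_one,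
      sign_mo_perm] at h
    rcases Int.units_eq_one_or (Perm.sign σ) with e' | e'
    · exact e'
    · rw [e', hodd.neg_one_pow] at h
      exact absurd h (by decide)
  rw [e]
  exact mul_mem (htr _).1 (mul_mem (perm_mem_pNorm hodd hI hpI hsign) hat)

/-- The normalizer of `wr P` consists of monomial permutations. -/
theorem exists_eq_mo [NeZero p] (hR : Fintype.card R ≤ 1) {P : Subgroup (Perm I)}
    {h : Perm (I × ZMod p ⊕ R)}
    (hh : h ∈ Subgroup.normalizer ((wr P : Subgroup (Perm (I × ZMod p ⊕ R))) : Set (Perm (I × ZMod p ⊕ R)))) :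
    ∃ σ a b, h = mo σ a b := by
  have key : ∀ i : I, ∃ j : I, ∃ c : (ZMod p)ˣ, ∃ d : ZMod p,
      ∀ y : ZMod p, h (Sum.inl (i, y)) = Sum.inl (j, c * y + d) := by
    intro i
    obtain ⟨π, -, b, hb⟩ := (Subgroup.mem_normalizer_iff.1 hh _).1
      (trans_mem_wr (R := R) P (Pi.single i 1))
    have hsupp : (mo (R := R) π 1 b).support.card = p := by
      rw [← hb, Perm.card_support_conj, card_support_trans,
        show (Finset.univ.filter fun l => Pi.single (M := fun _ : I => ZMod p) i 1 l ≠ 0) = {i} by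
          ext l
          rcases eq_or_ne l i with rfl | hl <;> simp [*],
        Finset.card_singleton, mul_one]
    rw [card_support_mo] at hsupp
    have hF : (Finset.univ.filter fun l => π l ≠ l ∨ b l ≠ 0).card = 1 :=
      Nat.eq_of_mul_eq_mul_left hp.out.pos (hsupp.trans (mul_one p).symm)
    obtain ⟨j, hj⟩ := Finset.card_eq_one.1 hF
    have hmem : ∀ l, (π l ≠ l ∨ b l ≠ 0) ↔ l = j := fun l => by
      simpa using Finset.ext_iff.1 hj l
    have hπ1 : π = 1 := by
      refine Perm.card_support_le_one.1 ?_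
      refine (Finset.card_le_card (fun l hl => ?_)).trans (Finset.card_singleton j).le
      exact Finset.mem_singleton.2 ((hmem l).1 (Or.inl (Perm.mem_support.1 hl)))
    subst hπ1
    have hbj : b j ≠ 0 := ((hmem j).2 rfl).resolve_left (by simp)
    have hb0 : ∀ l, l ≠ j → b l = 0 := fun l hl => by_contra fun e => hl ((hmem l).1 (Or.inr e))
    -- `h` intertwines the two translations
    have hcomm : ∀ (x : I × ZMod p ⊕ R), mo 1 1 b (h x) = h (mo 1 1 (Pi.single i 1) x) := fun x => by
      rw [← hb]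
      simp [Perm.mul_apply]
    obtain ⟨d, hd⟩ : ∃ d, h (Sum.inl (i, 0)) = Sum.inl (j, d) := by
      rcases hx : h (Sum.inl (i, 0)) with ⟨l, d⟩ | r
      · rcases eq_or_ne l j with rfl | hl
        · exact ⟨d, rfl⟩
        exfalso
        have := hcomm (Sum.inl (i, 0))
        rw [hx] at this
        simp [hb0 l hl] at this
        rw [← hx] at this
        simpa using h.injective this
      · exfalso
        have := hcomm (Sum.inl (i, 0))
        rw [hx] at this
        simp at this
        rw [← hx] at this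
        simpa using h.injective this
    refine ⟨j, Units.mk0 (b j) hbj, d, fun y => ?_⟩
    suffices ∀ k : ℕ, h (Sum.inl (i, (k : ZMod p))) = Sum.inl (j, b j * k + d) by
      simpa using this y.val
    intro k
    induction k with
    | zero => simpa using hd
    | succ k ih =>
      have := hcomm (Sum.inl (i, (k : ZMod p)))
      rw [ih] at this
      simp only [mo_inl, Perm.one_apply, Pi.one_apply, Units.val_one, one_mul, Pi.single_eq_same] at this
      rw [Nat.cast_succ, ← this, mul_add, mul_one, add_right_comm]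
  choose j c d hjcd using key
  have hinj : Function.Injective j := by
    intro i i' e
    have h1 := hjcd i' ((↑(c i')⁻¹ : ZMod p) * ((c i : ZMod p) * 0 + d i - d i'))
    rw [← mul_assoc, Units.mul_inv, one_mul, sub_add_cancel, ← e] at h1
    have := h.injective ((hjcd i 0).trans h1.symm)
    simp only [Sum.inl.injEq, Prod.mk.injEq] at this
    exact this.1
  refine ⟨Equiv.ofBijective j hinj.bijective_of_finite, c, d, ext_inl (fun i y => hjcd i y) fun r => ?_⟩
  have := Fintype.card_le_one_iff_subsingleton.1 hR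
  rcases hx : h (Sum.inr r) with ⟨l, y⟩ | r'
  · exfalso
    obtain ⟨i, rfl⟩ := hinj.bijective_of_finite.surjective l
    have h1 := hjcd i ((↑(c i)⁻¹ : ZMod p) * (y - d i))
    rw [← mul_assoc, Units.mul_inv, one_mul, sub_add_cancel, ← hx] at h1
    exact Sum.inl_ne_inr (h.injective h1)
  · rw [mo_inr, Subsingleton.elim r' r]

end CfsgLib.SymSylow.Mono
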